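import Mathlib
import Cfsg.Prelude.Def_CharExt
import Cfsg.Agent.CharactersDeep.CosetAverage
import Cfsg.Agent.CharactersDeep.ExtUnique
import Cfsg.Agent.Characters.GaloisIrr
import Cfsg.Agent.Solvable.SchurZassenhausConj
import Cfsg.Agent.CharDeep.LinearChar
import Cfsg.Agent.S0886

/-!
# The Galois canonical extension (helper723)

`N` is a normal subgroup of the finite group `G`, `G / N` solvable, `k` is prime to `#G` and `k ≡ -1` modulo
`|G : N|`, `φ` is a `G`-invariant irreducible character of `N` with `φ (n ^ k) = φ n` and trivial determinant, and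
`|G : N|` or `φ 1` is odd.  Then `φ` has exactly one extension `χ` to `G` with `χ (g ^ k) = χ g` and trivial
determinant.

* `Can`, `Can.unique`, `exists_can`
* `Can.pow` : it is fixed by every power map which fixes `φ`;  `Can.aut` : and by every automorphism which fixes `φ`.
-/

set_option autoImplicit false

open Cfsg Cfsg.Agent.Characters.Core Cfsg.Agent.CharactersDeep.ExtUnique

namespace Cfsg.Agent.H723.CY

universe u

section Basic

variable {G : Type u} [Group G] [Finite G]

/-- Gallagher: a linear character of `G / N` which fixes an extension is trivial. -/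
theorem hom_eq_one (N : Subgroup G) [hN : N.Normal] {χ : G → ℂ} (hχ : IsIrrCharacter G χ)
    (hχN : IsIrrCharacter N (fun n : N => χ n)) (β : G →* ℂˣ) (hβN : ∀ n ∈ N, β n = 1)
    (h : ∀ g, χ g * β g = χ g) (g : G) : β g = 1 := by
  classical
  have := Fintype.ofFinite G
  have := Fintype.ofFinite N
  by_contra h1
  have h2 := Cfsg.Agent.CharactersDeep.CosetAverage.cosetAverage_self N χ hχ hχN g
  have h3 : ∀ n : N, χ ((n : G) * g) = 0 := by
    intro n
    have h4 := h ((n : G) * g)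
    rw [map_mul, hβN n n.2, one_mul] at h4
    by_contra h5
    apply h1
    apply Units.ext
    rw [Units.val_one]
    exact mul_left_cancel₀ h5 (h4.trans (mul_one _).symm)
  simp [h3] at h2

/-- The determinant of a Galois conjugate. -/
theorem detChar_pow {χ : G → ℂ} (hχ : IsIrrCharacter G χ) {k : ℕ} (hk : k.Coprime (Nat.card G)) (g : G) :
    detChar (fun x => χ (x ^ k)) g = detChar χ (g ^ k) := by
  obtain ⟨σ, hσ⟩ := Cfsg.Agent.Characters.GaloisBasic.exists_ringEquiv_of_coprime (G := G) hk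
  have hfun : (fun x => σ (χ x)) = fun x => χ (x ^ k) := funext fun x => hσ χ (isIrr_isCharacter hχ) x
  have hχ' := Cfsg.Agent.Characters.GaloisIrr.isIrr_map σ hχ
  obtain ⟨δ, hδ⟩ := exists_hom_detChar hχ
  have hδc : IsCharacter G (detChar χ) := by
    have : detChar χ = fun n => (δ n : ℂ) := funext hδ
    rw [this]
    exact Cfsg.Agent.CharDeep.LinearChar.isCharacter_of_hom δ
  rw [← hfun, ← hσ _ hδc]
  obtain ⟨n, ρ, hρ, rfl⟩ := hχ
  have e1 : (fun g => σ (ρ.character g)) = (Cfsg.Agent.Characters.GaloisBasic.twist σ ρ).character :=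
    funext fun g => (Cfsg.Agent.Characters.GaloisBasic.twist_character σ ρ g).symm
  rw [e1] at hχ' ⊢
  have h2 := isIrreducible_of_isIrrCharacter _ hχ'
  rw [detChar_of_rep _ h2, detChar_of_rep _ hρ]
  show LinearMap.det (Matrix.toLin' ((LinearMap.toMatrix' (ρ g)).map σ)) = σ (LinearMap.det (ρ g))
  rw [LinearMap.det_toLin']
  conv_rhs => rw [← Matrix.toLin'_toMatrix' (ρ g), LinearMap.det_toLin']
  exact (RingEquiv.map_det σ _).symm

theorem detChar_comp {χ : G → ℂ} (hχ : IsIrrCharacter G χ) (α : G ≃* G) (g : G) :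
    detChar (fun x => χ (α x)) g = detChar χ (α g) := by
  obtain ⟨n, ρ, hρ, rfl⟩ := hχ
  let σ : Representation ℂ G (Fin n → ℂ) := MonoidHom.comp ρ (α : G →* G)
  have h1 : Representation.IsIrreducible σ :=
    CharDeep.LinearChar.isIrreducible_comp (α : G →* G) α.surjective ρ hρ
  have h2 : (fun x => ρ.character (α x)) = Representation.character σ := rfl
  rw [h2, detChar_of_rep _ h1, detChar_of_rep _ hρ]
  rfl

theorem detChar_mul {χ : G → ℂ} (hχ : IsIrrCharacter G χ) {d : ℕ} (hd : χ 1 = d) (ν : G →* ℂˣ) (g : G) :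
    detChar (fun g => χ g * ν g) g = detChar χ g * (ν g : ℂ) ^ d :=
  congrFun (detChar_mul_hom hχ hd ν) g

/-- The canonical extension. -/
structure Can (k : ℕ) (N : Subgroup G) (φ : N → ℂ) (χ : G → ℂ) : Prop where
  irr : IsIrrCharacter G χ
  res : ∀ n : N, χ n = φ n
  fix : ∀ g, χ (g ^ k) = χ g
  det : ∀ g, detChar χ g = 1

theorem Can.unique {k : ℕ} {N : Subgroup G} [hN : N.Normal] {φ : N → ℂ} (hφ : IsIrrCharacter N φ)
    {χ χ' : G → ℂ} (h : Can k N φ χ) (h' : Can k N φ χ') (hidx : N.index ∣ k + 1)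
    (hodd : Odd N.index ∨ ∃ d : ℕ, φ 1 = d ∧ Odd d) : χ' = χ := by
  obtain ⟨β, hβN, hβ⟩ := exists_hom_mul_of_restrict_eq N (isIrr_isCharacter h.irr) (isIrr_isCharacter h'.irr) hφ
    h.res h'.res
  have hβi : ∀ g, β g ^ N.index = 1 := fun g => by
    rw [← map_pow]; exact hβN _ (Subgroup.pow_index_mem N g)
  have hβk : ∀ g, β g ^ k * β g = 1 := by
    intro g
    obtain ⟨c, hc⟩ := hidx
    rw [← pow_succ, hc, pow_mul, hβi, one_pow]
  have hres : (fun n : N => χ n) = φ := funext h.res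
  have h1 : ∀ g, (β ^ k * β⁻¹) g = 1 := by
    apply hom_eq_one N h.irr (by rw [hres]; exact hφ)
    · intro n hn
      simp [hβN n hn]
    · intro g
      have h2 := h'.fix g
      rw [hβ, hβ, h.fix, map_pow] at h2
      rw [MonoidHom.mul_apply, MonoidHom.inv_apply, MonoidHom.pow_apply, Units.val_mul, ← mul_assoc, h2, mul_assoc,
        ← Units.val_mul, mul_inv_cancel, Units.val_one, mul_one]
  have hsq : ∀ g, β g ^ 2 = 1 := by
    intro g
    have h2 := h1 g
    rw [MonoidHom.mul_apply, MonoidHom.inv_apply, MonoidHom.pow_apply, mul_inv_eq_one] at h2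
    have h3 := hβk g
    rw [h2] at h3
    rw [pow_two, h3]
  have hone : ∀ g, β g = 1 := by
    intro g
    have h2 : orderOf (β g) ∣ 2 := orderOf_dvd_of_pow_eq_one (hsq g)
    have key : ∀ m : ℕ, Odd m → β g ^ m = 1 → β g = 1 := by
      intro m hm hm1
      have h3 : orderOf (β g) ∣ m := orderOf_dvd_of_pow_eq_one hm1
      have h4 : orderOf (β g) ∣ 1 := by
        rw [← (Nat.coprime_two_left.2 hm)]
        exact Nat.dvd_gcd h2 h3
      exact orderOf_eq_one_iff.1 (Nat.dvd_one.1 h4)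
    rcases hodd with ho | ⟨d, hd, ho⟩
    · exact key _ ho (hβi g)
    · apply key d ho
      have h3 : χ' = fun g => χ g * β g := funext hβ
      have h4 : χ 1 = d := (h.res 1).trans hd
      have h5 := h'.det g
      rw [h3, detChar_mul h.irr h4, h.det, one_mul] at h5
      apply Units.ext
      rw [Units.val_pow_eq_pow_val, h5, Units.val_one]
  funext g
  rw [hβ, hone, Units.val_one, mul_one]

/-- it is fixed by every power map which fixes `φ` -/
theorem Can.pow {k : ℕ} {N : Subgroup G} [hN : N.Normal] {φ : N → ℂ} (hφ : IsIrrCharacter N φ)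
    {χ : G → ℂ} (h : Can k N φ χ) (hidx : N.index ∣ k + 1)
    (hodd : Odd N.index ∨ ∃ d : ℕ, φ 1 = d ∧ Odd d) {j : ℕ} (hj : j.Coprime (Nat.card G))
    (hjφ : ∀ n, φ (n ^ j) = φ n) (g : G) : χ (g ^ j) = χ g := by
  have h1 : Can k N φ (fun g => χ (g ^ j)) :=
    { irr := Cfsg.Agent.Characters.GaloisIrr.isIrr_pow hj h.irr
      res := fun n => by
        have := h.res (n ^ j)
        rw [hjφ] at this
        exact this
      fix := fun g => by
        show χ ((g ^ k) ^ j) = χ (g ^ j)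
        rw [← pow_mul, mul_comm, pow_mul, h.fix]
      det := fun g => by rw [detChar_pow h.irr hj, h.det] }
  exact congrFun (Can.unique hφ h h1 hidx hodd) g

/-- it is fixed by every automorphism which fixes `φ` -/
theorem Can.aut {k : ℕ} {N : Subgroup G} [hN : N.Normal] {φ : N → ℂ} (hφ : IsIrrCharacter N φ)
    {χ : G → ℂ} (h : Can k N φ χ) (hidx : N.index ∣ k + 1)
    (hodd : Odd N.index ∨ ∃ d : ℕ, φ 1 = d ∧ Odd d) (α : G ≃* G) (hα : ∀ n ∈ N, α n ∈ N)
    (hαφ : ∀ n : N, φ ⟨α n, hα n n.2⟩ = φ n) (g : G) : χ (α g) = χ g := by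
  have h1 : Can k N φ (fun g => χ (α g)) :=
    { irr := isIrr_comp (α : G →* G) α.surjective h.irr
      res := fun n => (h.res ⟨α n, hα n n.2⟩).trans (hαφ n)
      fix := fun g => by
        show χ (α (g ^ k)) = χ (α g)
        rw [map_pow, h.fix]
      det := fun g => by rw [detChar_comp h.irr α, h.det] }
  exact congrFun (Can.unique hφ h h1 hidx hodd) g

end Basic

/-- one step: `G / K` of prime order -/
theorem can_step {G : Type u} [Group G] [Finite G] (K : Subgroup G) [hK : K.Normal] (hr : K.index.Prime) {k : ℕ}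
    (hk : k.Coprime (Nat.card G)) (hidx : K.index ∣ k + 1) {ψ : K → ℂ} (hψ : IsIrrCharacter K ψ)
    (hfix : ∀ n, ψ (n ^ k) = ψ n) (hdet : ∀ n, detChar ψ n = 1)
    (hinv : ∀ (g : G) (n : K), ψ ⟨g * n * g⁻¹, hK.conj_mem (n : G) n.2 g⟩ = ψ n)
    (hodd : Odd K.index ∨ ∃ d : ℕ, ψ 1 = d ∧ Odd d) : ∃ χ : G → ℂ, Can k K ψ χ := by
  have hfr : Fact K.index.Prime := ⟨hr⟩
  have hcyc : IsCyclic (G ⧸ K) := isCyclic_of_prime_card (p := K.index) rfl
  obtain ⟨χ₀, hχ₀, hres₀⟩ := Cfsg.Agent.S0886.result K hcyc ψ hψ hinv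
  obtain ⟨d, -, hd⟩ := isIrr_apply_one hψ
  have hd₀ : χ₀ 1 = d := (hres₀ 1).trans hd
  have hpow : IsIrrCharacter G (fun g => χ₀ (g ^ k)) := Cfsg.Agent.Characters.GaloisIrr.isIrr_pow hk hχ₀
  obtain ⟨β, hβK, hβ⟩ := exists_hom_mul_of_restrict_eq K (isIrr_isCharacter hχ₀) (isIrr_isCharacter hpow) hψ
    hres₀ (fun n => by
      have := hres₀ (n ^ k)
      rw [hfix] at this
      exact this)
  have hhom : ∀ ν : G →* ℂˣ, (∀ n ∈ K, ν n = 1) → ∀ g, ν g ^ K.index = 1 := fun ν hν g => by
    rw [← map_pow]; exact hν _ (Subgroup.pow_index_mem K g)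
  have hhomk : ∀ ν : G →* ℂˣ, (∀ n ∈ K, ν n = 1) → ∀ g, ν g ^ k * ν g = 1 := by
    intro ν hν g
    obtain ⟨c, hc⟩ := hidx
    rw [← pow_succ, hc, pow_mul, hhom ν hν, one_pow]
  rcases Nat.even_or_odd K.index with he | ho
  · -- index two
    have h2 : K.index = 2 := (hr.even_iff).1 he
    have hdo : Odd d := by
      rcases hodd with ho | ⟨d', hd', ho⟩
      · exact absurd he (Nat.not_even_iff_odd.2 ho)
      · have : d = d' := by
          rw [hd] at hd'
          exact_mod_cast hd'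
        rw [this]; exact ho
    obtain ⟨δ, hδ⟩ := exists_hom_detChar hχ₀
    have hδK : ∀ n ∈ K, δ n = 1 := by
      intro n hn
      apply Units.ext
      rw [← hδ, Units.val_one]
      have := detChar_restrict K hχ₀ hψ hres₀ ⟨n, hn⟩
      rw [hdet] at this
      exact this
    have hδ2 : ∀ g, δ g * δ g = 1 := fun g => by
      have := hhom δ hδK g
      rwa [h2, pow_two] at this
    have hδk : ∀ g, δ g ^ k = δ g := fun g => by
      have h3 := hhomk δ hδK g
      exact mul_right_cancel (h3.trans (hδ2 g).symm)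
    have hδd : ∀ ν : G →* ℂˣ, (∀ n ∈ K, ν n = 1) → ∀ g, ν g ^ d = ν g := by
      intro ν hν g
      obtain ⟨c, hc⟩ := hdo
      have h3 := hhom ν hν g
      rw [h2] at h3
      rw [hc, pow_succ, pow_mul, h3, one_pow, one_mul]
    -- `β` is trivial
    have hβ1 : ∀ g, β g = 1 := by
      intro g
      have h3 : detChar (fun g => χ₀ (g ^ k)) g = detChar χ₀ (g ^ k) := detChar_pow hχ₀ hk g
      have h4 : (fun g => χ₀ (g ^ k)) = fun g => χ₀ g * β g := funext hβ
      rw [h4, detChar_mul hχ₀ hd₀, hδ, hδ, map_pow, hδk, ← Units.val_pow_eq_pow_val, hδd β hβK,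
        ← Units.val_mul, Units.val_inj] at h3
      exact mul_eq_left.1 h3
    refine ⟨fun g => χ₀ g * δ g, isIrr_mul_hom hχ₀ δ, fun n => ?_, fun g => ?_, fun g => ?_⟩
    · show χ₀ n * δ n = ψ n
      rw [hδK n n.2, hres₀, Units.val_one, mul_one]
    · show χ₀ (g ^ k) * δ (g ^ k) = χ₀ g * δ g
      have h3 := hβ g
      rw [h3, hβ1, Units.val_one, mul_one, map_pow, hδk]
    · rw [detChar_mul hχ₀ hd₀, hδ, ← Units.val_pow_eq_pow_val, hδd δ hδK, ← Units.val_mul, hδ2, Units.val_one]
  · -- odd index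
    obtain ⟨c, hc⟩ := ho
    set ν : G →* ℂˣ := β ^ (c + 1) with hν
    have hνK : ∀ n ∈ K, ν n = 1 := by
      intro n hn
      rw [hν, MonoidHom.pow_apply, hβK n hn, one_pow]
    have hν2 : ∀ g, ν g * ν g = β g := by
      intro g
      have h3 := hhom β hβK g
      rw [hν, MonoidHom.pow_apply, ← pow_add, show c + 1 + (c + 1) = K.index + 1 by omega, pow_succ, h3, one_mul]
    have hirr : IsIrrCharacter G (fun g => χ₀ g * ν g) := isIrr_mul_hom hχ₀ ν
    have hres : ∀ n : K, χ₀ n * ν n = ψ n := fun n => by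
      rw [hνK n n.2, hres₀, Units.val_one, mul_one]
    have hfix' : ∀ g, χ₀ (g ^ k) * ν (g ^ k) = χ₀ g * ν g := by
      intro g
      have h3 := hβ g
      rw [h3, map_pow, mul_assoc, ← hν2, ← Units.val_mul, mul_assoc, mul_comm (ν g) (ν g ^ k), hhomk ν hνK, mul_one]
    refine ⟨fun g => χ₀ g * ν g, hirr, hres, hfix', fun g => ?_⟩
    obtain ⟨δ, hδ⟩ := exists_hom_detChar hirr
    have hδK : ∀ n ∈ K, δ n = 1 := by
      intro n hn
      apply Units.ext
      rw [← hδ, Units.val_one]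
      have := detChar_restrict K hirr hψ hres ⟨n, hn⟩
      rw [hdet] at this
      exact this
    have h3 : detChar (fun g => (fun g => χ₀ g * (ν g : ℂ)) (g ^ k)) g = detChar (fun g => χ₀ g * (ν g : ℂ)) (g ^ k) :=
      detChar_pow hirr hk g
    have h4 : (fun g => (fun g => χ₀ g * (ν g : ℂ)) (g ^ k)) = fun g => χ₀ g * (ν g : ℂ) := funext hfix'
    rw [h4, hδ, hδ, map_pow, Units.val_inj] at h3
    have h5 := hhomk δ hδK g
    rw [← h3] at h5
    have h6 := hhom δ hδK g
    rw [hc, pow_succ, pow_mul, pow_two, h5, one_pow, one_mul] at h6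
    rw [hδ, h6, Units.val_one]

/-- **existence of the canonical extension** -/
theorem exists_can (k : ℕ) : ∀ (m : ℕ) (G : Type u) [Group G] [Finite G] (N : Subgroup G) [hN : N.Normal]
    (_ : N.index = m) (_ : Group.IsSolvable (G ⧸ N)) (_ : k.Coprime (Nat.card G)) (_ : N.index ∣ k + 1)
    (φ : N → ℂ) (_ : IsIrrCharacter N φ) (_ : ∀ n, φ (n ^ k) = φ n) (_ : ∀ n, detChar φ n = 1)
    (_ : ∀ (g : G) (n : N), φ ⟨g * n * g⁻¹, hN.conj_mem (n : G) n.2 g⟩ = φ n)
    (_ : Odd N.index ∨ ∃ d : ℕ, φ 1 = d ∧ Odd d), ∃ χ : G → ℂ, Can k N φ χ := by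
  intro m
  induction m using Nat.strong_induction_on with
  | _ m ih =>
  intro G _ _ N hN hm hs hk hidx φ hφ hfix hdet hinv hodd
  by_cases hNt : N = ⊤
  · subst hNt
    let e : G ≃* (⊤ : Subgroup G) := Subgroup.topEquiv.symm
    have hres : ∀ n : (⊤ : Subgroup G), (φ ∘ e) (n : G) = φ n := fun n => rfl
    have hirr : IsIrrCharacter G (φ ∘ e) := isIrr_comp (e : G →* _) e.surjective hφ
    refine ⟨φ ∘ e, hirr, hres, fun g => ?_, fun g => ?_⟩
    · show φ (e (g ^ k)) = φ (e g)
      rw [map_pow, hfix]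
    · have := detChar_restrict (⊤ : Subgroup G) hirr hφ hres ⟨g, Subgroup.mem_top g⟩
      rw [hdet] at this
      exact this
  · obtain ⟨K, hK, hNK, hKp⟩ := Cfsg.Agent.Solvable.SchurZassenhausConj.exists_normal_prime_index N hNt hs
    have hi : N.relIndex K * K.index = N.index := Subgroup.relIndex_mul_index hNK
    have hN' : (N.subgroupOf K).Normal := hN.subgroupOf K
    have hidx' : (N.subgroupOf K).index ∣ k + 1 := (Dvd.intro _ hi).trans hidx
    have hKidx : K.index ∣ k + 1 := (Dvd.intro_left _ hi).trans hidx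
    let e : N.subgroupOf K ≃* N := Subgroup.subgroupOfEquivOfLe hNK
    have he : ∀ x, ((e x : N) : G) = ((x : K) : G) := fun x => rfl
    let φ' : N.subgroupOf K → ℂ := fun x => φ (e x)
    have hφ' : IsIrrCharacter (N.subgroupOf K) φ' := isIrr_comp (e : N.subgroupOf K →* N) e.surjective hφ
    have hs' : Group.IsSolvable (K ⧸ N.subgroupOf K) := by
      let f : K ⧸ N.subgroupOf K →* G ⧸ N := QuotientGroup.map _ _ K.subtype (fun x hx => hx)
      have hf : Function.Injective f := by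
        rw [← MonoidHom.ker_eq_bot_iff, Subgroup.eq_bot_iff_forall]
        intro x
        induction x using QuotientGroup.induction_on with
        | _ x =>
          intro hx
          rw [MonoidHom.mem_ker] at hx
          have h1 : ((x : G) : G ⧸ N) = 1 := hx
          rw [QuotientGroup.eq_one_iff] at h1
          exact (QuotientGroup.eq_one_iff x).2 h1
      exact Group.isSolvable_of_isSolvable_injective hf
    have hcK : Nat.card K ∣ Nat.card G := Subgroup.card_subgroup_dvd_card K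
    have hdet' : ∀ n, detChar φ' n = 1 := by
      intro n
      obtain ⟨a, ρ, hρ, rfl⟩ := hφ
      let σ : Representation ℂ (N.subgroupOf K) (Fin a → ℂ) := MonoidHom.comp ρ (e : N.subgroupOf K →* N)
      have h1 : Representation.IsIrreducible σ :=
        CharDeep.LinearChar.isIrreducible_comp (e : N.subgroupOf K →* N) e.surjective ρ hρ
      have h2 : φ' = Representation.character σ := rfl
      rw [h2, detChar_of_rep _ h1]
      have h3 := hdet (e n)
      rw [detChar_of_rep _ hρ] at h3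
      exact h3
    have hodd' : Odd (N.subgroupOf K).index ∨ ∃ d : ℕ, φ' 1 = d ∧ Odd d := by
      rcases hodd with ho | ⟨d, hd, ho⟩
      · left
        rw [← hi] at ho
        exact (Nat.odd_mul.1 ho).1
      · exact Or.inr ⟨d, by rw [← hd]; show φ (e 1) = φ 1; rw [map_one], ho⟩
    have hlt : (N.subgroupOf K).index < m := by
      rw [← hm, ← hi]
      have h1 : 0 < N.relIndex K := Nat.pos_of_ne_zero fun h => by
        rw [h, zero_mul] at hi
        exact N.index_ne_zero_of_finite hi.symm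
      exact lt_mul_of_one_lt_right h1 hKp.one_lt
    obtain ⟨ψ, hψ⟩ := ih _ hlt K (N.subgroupOf K) rfl hs' (Nat.Coprime.coprime_dvd_right hcK hk) hidx' φ' hφ'
      (fun n => by show φ (e (n ^ k)) = φ (e n); rw [map_pow, hfix]) hdet'
      (fun g n => hinv (g : G) ⟨((n : K) : G), n.2⟩) hodd'
    obtain ⟨χ, hχ⟩ := can_step K hKp hk hKidx hψ.irr hψ.fix hψ.det (by
      intro g n
      have h1 := Can.aut hφ' hψ hidx' hodd' (MulAut.conjNormal g : MulAut K) (by
        intro x hx
        show ((MulAut.conjNormal g x : K) : G) ∈ N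
        rw [MulAut.conjNormal_apply]
        exact hN.conj_mem _ hx g) (by
        intro x
        exact hinv g ⟨((x : K) : G), x.2⟩) n
      exact h1) (by
      rcases hodd with ho | ⟨d, hd, ho⟩
      · left
        rw [← hi] at ho
        exact (Nat.odd_mul.1 ho).2
      · refine Or.inr ⟨d, ?_, ho⟩
        rw [← hd]
        have := hψ.res 1
        have h2 : φ' 1 = φ 1 := by show φ (e 1) = φ 1; rw [map_one]
        rw [h2] at this
        exact this)
    refine ⟨χ, hχ.irr, fun n => ?_, hχ.fix, hχ.det⟩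
    have h1 := hχ.res ⟨n, hNK n.2⟩
    have h2 := hψ.res ⟨⟨n, hNK n.2⟩, n.2⟩
    exact h1.trans h2

/-- the power map -/
theorem exists_k {p : ℕ} (hp : p.Prime) {c : ℕ} (hc : c ≠ 0) {i : ℕ} (hi : i ∣ c) (hpi : ¬ p ∣ i) :
    ∃ k : ℕ, k.Coprime c ∧ k ≡ 1 [MOD p] ∧ i ∣ k + 1 := by
  obtain ⟨a, m, hm, hcm⟩ := Nat.exists_eq_pow_mul_and_not_dvd hc p hp.one_lt.ne'
  have hm0 : m ≠ 0 := fun h => by rw [h, mul_zero] at hcm; exact hc hcm
  have hcop : (p ^ (a + 1)).Coprime m := Nat.Coprime.pow_left _ ((hp.coprime_iff_not_dvd).2 hm)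
  obtain ⟨k, hk1, hk2⟩ := Nat.chineseRemainder hcop 1 (m - 1)
  have hk3 : m ∣ k + 1 := by
    have h1 : k + 1 ≡ m - 1 + 1 [MOD m] := hk2.add_right 1
    rw [Nat.sub_add_cancel (Nat.pos_of_ne_zero hm0)] at h1
    exact (Nat.modEq_zero_iff_dvd).1 (h1.trans (Nat.modEq_zero_iff_dvd.2 dvd_rfl))
  have hk4 : k ≡ 1 [MOD p] := hk1.of_dvd (dvd_pow_self p (Nat.succ_ne_zero a))
  refine ⟨k, ?_, hk4, ?_⟩
  · rw [hcm]
    apply Nat.Coprime.mul_right
    · apply Nat.Coprime.pow_right
      rw [Nat.coprime_comm, hp.coprime_iff_not_dvd]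
      intro h
      have h2 := (Nat.modEq_zero_iff_dvd.2 h).symm.trans hk4
      have h3 : p ∣ 1 := (Nat.modEq_zero_iff_dvd).1 h2.symm
      exact hp.one_lt.ne' (Nat.dvd_one.1 h3)
    · have h1 : (k.gcd m) ∣ 1 := by
        have h2 : k.gcd m ∣ k + 1 := (Nat.gcd_dvd_right k m).trans hk3
        exact (Nat.dvd_add_right (Nat.gcd_dvd_left k m)).1 h2
      exact Nat.dvd_one.1 h1
  · refine Dvd.dvd.trans ?_ hk3
    have h1 : i.Coprime (p ^ a) := (Nat.Coprime.pow_left a ((hp.coprime_iff_not_dvd).2 hpi)).symm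
    rw [hcm] at hi
    exact h1.dvd_of_dvd_mul_left hi

end Cfsg.Agent.H723.CY
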