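import Cfsg.Agent.H723.CY.Canon
import Cfsg.Agent.H770.CY.Defs

/-!
# S4829, L8: the canonical extension is `p`-cyclotomic (helper723)
-/

set_option autoImplicit false

open Cfsg Cfsg.Agent.Characters.Core Cfsg.Agent.H770.CY

namespace Cfsg.Agent.H723.CY

universe u

/-- the determinant of a character of a perfect group is trivial -/
theorem detChar_of_perfect {N : Type u} [Group N] [Finite N] (hperf : commutator N = ⊤) {φ : N → ℂ}
    (hφ : IsIrrCharacter N φ) (n : N) : detChar φ n = 1 := by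
  obtain ⟨δ, hδ⟩ := Cfsg.Agent.CharactersDeep.ExtUnique.exists_hom_detChar hφ
  have h1 : n ∈ commutator N := by rw [hperf]; exact Subgroup.mem_top n
  have h2 : commutator N ≤ δ.ker := Abelianization.commutator_subset_ker δ
  have h3 : δ n = 1 := h2 h1
  rw [hδ, h3, Units.val_one]

/-- **L8 (1).** `G / N` a solvable `p'`-group, `φ` an invariant `p`-cyclotomic character of `N` of trivial
determinant, `|G : N|` or `φ 1` odd: a canonical `p`-cyclotomic extension. -/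
theorem exists_canon {p : ℕ} (hp : p.Prime) {G : Type u} [Group G] [Finite G] (N : Subgroup G) [hN : N.Normal]
    (hs : Group.IsSolvable (G ⧸ N)) (hpN : ¬ p ∣ N.index) {φ : N → ℂ} (hφ : IsIrrCharacter N φ) (hcyc : Cyc p φ)
    (hdet : ∀ n, detChar φ n = 1)
    (hinv : ∀ (g : G) (n : N), φ ⟨g * n * g⁻¹, hN.conj_mem (n : G) n.2 g⟩ = φ n)
    (hodd : Odd N.index ∨ ∃ d : ℕ, φ 1 = d ∧ Odd d) :
    ∃ (k : ℕ) (χ : G → ℂ), k.Coprime (Nat.card G) ∧ k ≡ 1 [MOD p] ∧ N.index ∣ k + 1 ∧ Can k N φ χ ∧ Cyc p χ := by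
  have hcard : Nat.card N ∣ Nat.card G := Subgroup.card_subgroup_dvd_card N
  obtain ⟨k, hk, hkp, hki⟩ := exists_k hp (Nat.card_pos (α := G)).ne' (Subgroup.index_dvd_card N) hpN
  have hfix : ∀ j : ℕ, j.Coprime (Nat.card G) → j ≡ 1 [MOD p] → ∀ n, φ (n ^ j) = φ n := fun j hj hjp n =>
    hcyc j (Nat.Coprime.coprime_dvd_right hcard hj) hjp n
  obtain ⟨χ, hχ⟩ := exists_can k _ G N rfl hs hk hki φ hφ (hfix k hk hkp) hdet hinv hodd
  exact ⟨k, χ, hk, hkp, hki, hχ, fun j hj hjp g => hχ.pow hφ hki hodd hj (hfix j hj hjp) g⟩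

end Cfsg.Agent.H723.CY
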