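import Cfsg.Agent.H723.CY.CanonCyc
import Cfsg.Agent.H656.OverPrincipal
import Cfsg.Agent.H700.PRatExt
import Cfsg.Agent.CharactersDeep.FeitLinear

/-!
# S4829, L8 (2): the local condition (helper723)

`N` normal in the finite group `G`, `p` does not divide `|G : N|`, `χ` a `p`-cyclotomic character of `G` which
restricts to `θ ∈ B₀(N)`, `p` does not divide `θ 1`, and `a ∈ G` centralizes a Sylow `p`-subgroup of `N`:
`χ a ≡ ± χ 1` (`loc_sign`), and the sign is `+` as soon as it is so for the `2`-part of `a` (`loc_of_two`).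
-/

set_option autoImplicit false

open Cfsg Cfsg.Agent.Characters.Core Cfsg.Agent.H770.CY
open Cfsg.Agent.H700.PRatExt Cfsg.Agent.H700.PrinExt Cfsg.Agent.H700.PrinCrit
open Cfsg.Agent.Blocks.Basic Cfsg.Agent.Blocks.Local

namespace Cfsg.Agent.H723.CY

universe u

variable {G : Type u} [Group G] [Finite G] {p : ℕ} [Fact p.Prime] {M : Ideal AlgInt}

omit [Finite G] in
theorem commutator_mem_zpowers (N : Subgroup G) [hN : N.Normal] (a : G) (x y : ↥(N ⊔ Subgroup.zpowers a)) :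
    x * y * x⁻¹ * y⁻¹ ∈ N.subgroupOf (N ⊔ Subgroup.zpowers a) := by
  show (x : G) * y * (x : G)⁻¹ * (y : G)⁻¹ ∈ N
  have key : ∀ z ∈ N ⊔ Subgroup.zpowers a, ∃ i : ℤ, ((z : G) : G ⧸ N) = (a : G ⧸ N) ^ i := by
    intro z hz
    obtain ⟨n, hn, c, hc, rfl⟩ := Subgroup.mem_sup_of_normal_left.1 hz
    obtain ⟨i, rfl⟩ := Subgroup.mem_zpowers_iff.1 hc
    refine ⟨i, ?_⟩
    rw [QuotientGroup.mk_mul, (QuotientGroup.eq_one_iff n).2 hn, one_mul, QuotientGroup.mk_zpow]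
  obtain ⟨i, hi⟩ := key x x.2
  obtain ⟨j, hj⟩ := key y y.2
  rw [← QuotientGroup.eq_one_iff]
  simp only [QuotientGroup.mk_mul, QuotientGroup.mk_inv]
  rw [hi, hj, ← zpow_add, ← zpow_neg, ← zpow_add, ← zpow_neg, ← zpow_add]
  rw [show i + j + -i + -j = 0 by ring, zpow_zero]

omit [Fact p.Prime] in
theorem memLocalRing_isChar [M.IsPrime] {χ : G → ℂ} (hχ : IsCharacter G χ) (g : G) : MemLocalRing M (χ g) := by
  obtain ⟨n, ρ, rfl⟩ := hχ
  exact memLocalRing_of_isIntegral (Cfsg.Agent.Blocks.Central.isIntegral_character ρ g)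

/-- **the sign** -/
theorem loc_sign (hM : IsPModular p M) (N : Subgroup G) [hN : N.Normal] (hpN : ¬ p ∣ N.index) {χ : G → ℂ}
    (hχ : IsCharacter G χ) (θ : IrrCharacter N) (hres : ∀ n : N, χ n = (θ : N → ℂ) n)
    (hθ : θ ∈ principalBlock M N) (hd : ¬ p ∣ charDegree (θ : N → ℂ)) (hcyc : Cyc p χ) (Q : Sylow p N) (a : G)
    (haQ : ∀ x ∈ (Q : Subgroup N), a * (x : G) = x * a) :
    ∃ l : ↥(N ⊔ Subgroup.zpowers a) →* ℂˣ, (∀ n ∈ N.subgroupOf (N ⊔ Subgroup.zpowers a), l n = 1) ∧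
      ∀ (b : ↥(N ⊔ Subgroup.zpowers a)), (∀ x ∈ (Q : Subgroup N), (b : G) * (x : G) = x * b) →
        MemLocalIdeal M (χ b * l b - (charDegree (θ : N → ℂ) : ℂ)) ∧ l b ^ 2 = 1 := by
  classical
  have hMp := isPrime_of_isPModular hM
  have hp : p.Prime := Fact.out
  set Y := N ⊔ Subgroup.zpowers a with hY
  have hNY : N ≤ Y := le_sup_left
  have hN' : (N.subgroupOf Y).Normal := hN.subgroupOf Y
  have hrel : N.relIndex Y * Y.index = N.index := Subgroup.relIndex_mul_index hNY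
  have hpY : ¬ p ∣ N.relIndex Y := fun h => hpN (hrel ▸ h.mul_right _)
  set Q0 : Subgroup G := (Q : Subgroup N).map N.subtype with hQ0
  have hQ0N : Q0 ≤ N := by
    rintro _ ⟨x, -, rfl⟩
    exact x.2
  have hQ0p : IsPGroup p Q0 := Q.2.map _
  have hQ0i : ¬ p ∣ Q0.relIndex N := by
    have : Q0.relIndex N = (Q : Subgroup N).index := by
      show (((Q : Subgroup N).map N.subtype).comap N.subtype).index = _
      rw [Subgroup.comap_map_eq_self_of_injective N.subtype_injective]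
    rw [this]
    exact Q.not_dvd_index
  have hcent : ∀ b : G, (∀ x ∈ (Q : Subgroup N), b * (x : G) = x * b) ↔ b ∈ Subgroup.centralizer (Q0 : Set G) := by
    intro b
    rw [Subgroup.mem_centralizer_iff]
    constructor
    · rintro h _ ⟨x, hx, rfl⟩
      exact (h x hx).symm
    · intro h x hx
      exact (h x ⟨x, hx, rfl⟩).symm
  have hYC : Y ≤ N ⊔ Subgroup.centralizer (Q0 : Set G) :=
    sup_le_sup_left ((Subgroup.zpowers_le).2 ((hcent a).1 haQ)) N
  obtain ⟨h1, h2, h3, -⟩ := sub_data N Q0 hQ0p hQ0N hQ0i hNY hpY hYC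
  -- the member of the principal block of `Y`
  have hinv : ∀ (g : Y) (n : N.subgroupOf Y), (up N θ hNY : N.subgroupOf Y → ℂ) ⟨g * n * g⁻¹, hN'.conj_mem n n.2 g⟩ =
      (up N θ hNY : N.subgroupOf Y → ℂ) n := by
    intro g n
    rw [up_apply, up_apply, ← hres, ← hres]
    exact isCharacter_isClassFunction hχ ((n : Y) : G) (g : G)
  have hθ' : up N θ hNY ∈ principalBlock M (N.subgroupOf Y) := mapIrr_mem _ hθ
  have := Fintype.ofFinite (N.subgroupOf Y)
  have := Fintype.ofFinite Y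
  obtain ⟨ξ, hξ, hover⟩ := Cfsg.Agent.H656.OverPrincipal.exists_over hM (N.subgroupOf Y) (default : Sylow p Y)
    (by rw [Subgroup.normalizer_eq_top]; exact le_top) (up N θ hNY) hθ'
  have hcyc' : IsCyclic (Y ⧸ N.subgroupOf Y) := by
    have ha : a ∈ Y := (le_sup_right : Subgroup.zpowers a ≤ Y) (Subgroup.mem_zpowers a)
    refine ⟨((⟨a, ha⟩ : Y) : Y ⧸ N.subgroupOf Y), fun x => ?_⟩
    induction x using QuotientGroup.induction_on with
    | _ x =>
    obtain ⟨n, hn, c, hc, hx⟩ := Subgroup.mem_sup_of_normal_left.1 x.2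
    obtain ⟨i, rfl⟩ := Subgroup.mem_zpowers_iff.1 hc
    refine ⟨i, ?_⟩
    show ((⟨a, ha⟩ : Y) : Y ⧸ N.subgroupOf Y) ^ i = _
    rw [← QuotientGroup.mk_zpow, QuotientGroup.eq]
    show (((⟨a, ha⟩ : Y) ^ i : Y) : G)⁻¹ * x ∈ N
    rw [← hx]
    have h4 := hN.conj_mem n hn (a ^ i)⁻¹
    rw [inv_inv] at h4
    rw [Subgroup.coe_zpow]
    rwa [← mul_assoc]
  obtain ⟨ζ, hζ, hζres⟩ := Cfsg.Agent.S0886.result (N.subgroupOf Y) hcyc' (up N θ hNY : N.subgroupOf Y → ℂ)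
    (up N θ hNY).2 hinv
  have hζN : (fun n : N.subgroupOf Y => ζ n) = (up N θ hNY : N.subgroupOf Y → ℂ) := funext hζres
  obtain ⟨η, hη, hηN, hξη⟩ := Cfsg.Agent.CharactersDeep.CosetAverage.exists_irr_mul (N.subgroupOf Y) ζ hζ
    (by rw [hζN]; exact (up N θ hNY).2) (ξ : Y → ℂ) ξ.2 (by rw [hζN]; exact hover)
  have hη0 : ∀ n ∈ N.subgroupOf Y, η n = η 1 := by
    intro n hn
    have := hηN ⟨n, hn⟩ 1
    rwa [mul_one] at this
  have hη1 : η 1 = 1 := Cfsg.Agent.CharactersDeep.FeitLinear.apply_one_eq_one (N.subgroupOf Y)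
    (commutator_mem_zpowers N a) hη hη0
  have hξres : ∀ n : N.subgroupOf Y, (ξ : Y → ℂ) n = (up N θ hNY : N.subgroupOf Y → ℂ) n := by
    intro n
    rw [hξη, Pi.mul_apply, hη0 _ n.2, hη1, mul_one, hζres]
  obtain ⟨β, hβN, hβ⟩ := CharactersDeep.ExtUnique.exists_hom_mul_of_restrict_eq (N.subgroupOf Y)
    (χ := (ξ : Y → ℂ)) (χ' := χ ∘ Y.subtype) (isIrr_isCharacter ξ.2) (isCharacter_comp Y.subtype hχ)
    (up N θ hNY).2 hξres (fun n => hres ⟨((n : Y) : G), n.2⟩)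
  have hβ' : ∀ b : Y, χ b = (ξ : Y → ℂ) b * β b := hβ
  set d := charDegree (θ : N → ℂ) with hdd
  have hξ1 : (ξ : Y → ℂ) 1 = (d : ℂ) := by
    have h4 : (up N θ hNY : N.subgroupOf Y → ℂ) 1 = (θ : N → ℂ) 1 := rfl
    exact (hξres 1).trans (h4.trans (irr_one_eq_charDegree θ.2))
  have hdξ : ¬ p ∣ charDegree (ξ : Y → ℂ) := by
    have h4 : (charDegree (ξ : Y → ℂ) : ℂ) = (d : ℂ) := by rw [← hξ1]; exact (irr_one_eq_charDegree ξ.2).symm
    have h5 : charDegree (ξ : Y → ℂ) = d := by exact_mod_cast h4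
    rw [h5]; exact hd
  have hcong : ∀ b : Y, (∀ x ∈ (Q : Subgroup N), (b : G) * (x : G) = x * b) →
      MemLocalIdeal M ((ξ : Y → ℂ) b - d) := by
    intro b hb
    rw [← hξ1]
    refine (mem_principalBlock_iff hM h1 h2 ξ hdξ).1 hξ b ?_
    rw [Subgroup.mem_centralizer_iff]
    intro y hy
    apply Subtype.ext
    exact Subgroup.mem_centralizer_iff.1 ((hcent b).1 hb) (y : G) hy
  obtain ⟨k, hk, hkp, hki⟩ := exists_k hp (Nat.card_pos (α := G)).ne' (Subgroup.index_dvd_card N) hpN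
  have hβi : ∀ b : Y, β b ^ N.index = 1 := by
    intro b
    rw [← hrel, pow_mul, ← map_pow, hβN (b ^ N.relIndex Y) (Subgroup.pow_index_mem (N.subgroupOf Y) b), one_pow]
  have hβk : ∀ b : Y, β b ^ k * β b = 1 := by
    intro b
    obtain ⟨c, hc⟩ := hki
    rw [← pow_succ, hc, pow_mul, hβi, one_pow]
  refine ⟨β⁻¹, fun n hn => by rw [MonoidHom.inv_apply, hβN n hn, inv_one], fun b hb => ⟨?_, ?_⟩⟩
  · rw [hβ', MonoidHom.inv_apply, mul_assoc, ← Units.val_mul, mul_inv_cancel, Units.val_one, mul_one]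
    exact hcong b hb
  · have hbk : ∀ x ∈ (Q : Subgroup N), ((b ^ k : Y) : G) * (x : G) = x * (b ^ k : Y) := by
      intro x hx
      rw [Subgroup.coe_pow]
      exact (Commute.pow_left (show Commute (b : G) (x : G) from hb x hx) k)
    have h4 : (ξ : Y → ℂ) b * ((β b : ℂ) ^ 2) = (ξ : Y → ℂ) (b ^ k) := by
      have h5 := hcyc k hk hkp (b : G)
      have h6 := hβ' (b ^ k)
      rw [Subgroup.coe_pow, h5, hβ' b, map_pow] at h6
      rw [pow_two, ← mul_assoc, h6, mul_assoc, ← Units.val_mul, hβk, Units.val_one, mul_one]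
    have h7 : ((β b : ℂ) ^ 2) = 1 := by
      apply unit_cancel hM hd (memLocalRing_irr ξ.2 b) (hcong b hb) hpN
      · rw [← pow_mul, mul_comm, pow_mul, ← Units.val_pow_eq_pow_val, hβi, Units.val_one, one_pow]
      · rw [h4]
        exact hcong _ hbk
    rw [MonoidHom.inv_apply, inv_pow, inv_eq_one]
    apply Units.ext
    rw [Units.val_pow_eq_pow_val, h7, Units.val_one]

/-- the `2`-part and the odd part of an element -/
theorem exists_two_part (a : G) : ∃ b c : G, b ∈ Subgroup.zpowers a ∧ c ∈ Subgroup.zpowers a ∧ b * c = a ∧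
    (∃ j, orderOf b = 2 ^ j) ∧ Odd (orderOf c) := by
  obtain ⟨j, m, hm, ham⟩ := Nat.exists_eq_pow_mul_and_not_dvd (orderOf_pos a).ne' 2 (by norm_num)
  have hmo : Odd m := Nat.not_even_iff_odd.1 (fun h => hm h.two_dvd)
  have hcop : IsCoprime ((2 ^ j : ℕ) : ℤ) (m : ℤ) :=
    Nat.isCoprime_iff_coprime.2 (Nat.Coprime.pow_left j (Nat.coprime_two_left.2 hmo))
  obtain ⟨u, v, huv⟩ := hcop
  refine ⟨a ^ (v * m), a ^ (u * (2 ^ j : ℕ)), Subgroup.zpow_mem_zpowers a _, Subgroup.zpow_mem_zpowers a _, ?_, ?_, ?_⟩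
  · rw [← zpow_add, add_comm, huv, zpow_one]
  · have h1 : (a ^ (v * m)) ^ 2 ^ j = 1 := by
      rw [← zpow_natCast, ← zpow_mul, mul_assoc, ← Nat.cast_mul, mul_comm m, ← ham, mul_comm v, zpow_mul, zpow_natCast,
        pow_orderOf_eq_one, one_zpow]
    obtain ⟨i, -, hi⟩ := (Nat.dvd_prime_pow Nat.prime_two).1 (orderOf_dvd_of_pow_eq_one h1)
    exact ⟨i, hi⟩
  · have h1 : (a ^ (u * (2 ^ j : ℕ))) ^ m = 1 := by
      rw [← zpow_natCast, ← zpow_mul, mul_assoc, ← Nat.cast_mul, ← ham, mul_comm u, zpow_mul, zpow_natCast,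
        pow_orderOf_eq_one, one_zpow]
    exact Odd.of_dvd_nat hmo (orderOf_dvd_of_pow_eq_one h1)

/-- **L8 (2)**: it is enough to know the value on the `2`-part. -/
theorem loc_of_two (hM : IsPModular p M) (N : Subgroup G) [hN : N.Normal] (hpN : ¬ p ∣ N.index) {χ : G → ℂ}
    (hχ : IsCharacter G χ) (θ : IrrCharacter N) (hres : ∀ n : N, χ n = (θ : N → ℂ) n)
    (hθ : θ ∈ principalBlock M N) (hd : ¬ p ∣ charDegree (θ : N → ℂ)) (hcyc : Cyc p χ) (Q : Sylow p N)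
    (h2 : ∀ b : G, (∃ j, orderOf b = 2 ^ j) → (∀ x ∈ (Q : Subgroup N), b * (x : G) = x * b) →
      MemLocalIdeal M (χ b - χ 1))
    (a : G) (haQ : ∀ x ∈ (Q : Subgroup N), a * (x : G) = x * a) : MemLocalIdeal M (χ a - χ 1) := by
  have hMp := isPrime_of_isPModular hM
  obtain ⟨l, hlN, hl⟩ := loc_sign hM N hpN hχ θ hres hθ hd hcyc Q a haQ
  obtain ⟨b, c, hb, hc, hbc, hb2, hco⟩ := exists_two_part a
  have hχ1 : χ 1 = (charDegree (θ : N → ℂ) : ℂ) := (hres 1).trans (irr_one_eq_charDegree θ.2)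
  have hpow : ∀ y ∈ Subgroup.zpowers a, ∀ x ∈ (Q : Subgroup N), y * (x : G) = x * y := by
    intro y hy x hx
    obtain ⟨i, rfl⟩ := Subgroup.mem_zpowers_iff.1 hy
    exact Commute.zpow_left (show Commute a (x : G) from haQ x hx) i
  have hle : Subgroup.zpowers a ≤ N ⊔ Subgroup.zpowers a := le_sup_right
  set b' : ↥(N ⊔ Subgroup.zpowers a) := ⟨b, hle hb⟩ with hb'
  set c' : ↥(N ⊔ Subgroup.zpowers a) := ⟨c, hle hc⟩ with hc'
  set a' : ↥(N ⊔ Subgroup.zpowers a) := ⟨a, hle (Subgroup.mem_zpowers a)⟩ with ha'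
  have hbca : b' * c' = a' := Subtype.ext hbc
  have hlc : l c' = 1 := by
    have h3 := (hl c' (hpow c hc)).2
    have h4 : l c' ^ orderOf c = 1 := by
      rw [← map_pow]
      have : c' ^ orderOf c = 1 := Subtype.ext (by rw [Subgroup.coe_pow]; exact pow_orderOf_eq_one c)
      rw [this, map_one]
    have h5 : orderOf (l c') ∣ 1 := by
      rw [← (Nat.coprime_two_left.2 hco)]
      exact Nat.dvd_gcd (orderOf_dvd_of_pow_eq_one h3) (orderOf_dvd_of_pow_eq_one h4)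
    exact orderOf_eq_one_iff.1 (Nat.dvd_one.1 h5)
  have hlb : l b' = 1 := by
    obtain ⟨h3, h4⟩ := hl b' (hpow b hb)
    have h5 := h2 b hb2 (hpow b hb)
    rw [hχ1] at h5
    have h6 : (l b' : ℂ) ^ N.index = 1 := by
      rw [← Units.val_pow_eq_pow_val, ← map_pow]
      have h7 : b' ^ N.index ∈ N.subgroupOf (N ⊔ Subgroup.zpowers a) := by
        show ((b' ^ N.index : ↥(N ⊔ Subgroup.zpowers a)) : G) ∈ N
        rw [Subgroup.coe_pow]
        exact Subgroup.pow_index_mem N b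
      rw [hlN _ h7, Units.val_one]
    have h8 := unit_cancel hM hd (memLocalRing_isChar hχ b) h5 hpN h6 h3
    exact Units.ext (by rw [h8, Units.val_one])
  have h3 := (hl a' haQ).1
  rw [← hbca, map_mul, hlb, hlc, mul_one, Units.val_one, mul_one, hbca] at h3
  rw [hχ1]
  exact h3

end Cfsg.Agent.H723.CY
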